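import Cfsg.Agent.AutCl.OGF

/-! The quotients `PGO / PSO`, `PGO / PΩ`, `Inndiag / PΩ` in even dimension, odd characteristic. -/

set_option autoImplicit false

namespace Cfsg.Agent.AutCl

open Cfsg.Agent.Geom Cfsg.Agent.Geom.Formed Module SemidirectProduct
open Matrix hiding inv_inj mul_inv_rev

section Grp
variable {G : Type*} [Group G] {K : Subgroup G}

theorem exists_of_quot [K.Normal] {B : Type*} [Group B] (e : Nonempty (G ⧸ K ≃* B)) :
    ∃ φ : G →* B, Function.Surjective φ ∧ φ.ker = K :=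
  let ⟨e⟩ := e
  ⟨e.toMonoidHom.comp (QuotientGroup.mk' K), e.surjective.comp (QuotientGroup.mk'_surjective K), by
    ext x; simp⟩

theorem exists_c2 (h : K.index = 2) :
    ∃ φ : G →* Multiplicative (ZMod 2), Function.Surjective φ ∧ φ.ker = K :=
  have := Subgroup.normal_of_index_eq_two h
  exists_of_quot ⟨mulEquivOfPrimeCardEq (p := 2) h (by simp)⟩

theorem exists_c4 [K.Normal] (h : K.index = 4) {x : G} (hx : x * x ∉ K) :
    ∃ φ : G →* Multiplicative (ZMod 4), Function.Surjective φ ∧ φ.ker = K := by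
  have h4 : Nat.card (G ⧸ K) = 4 := h
  have : Finite (G ⧸ K) := Nat.finite_of_card_ne_zero (by omega)
  have h1 : orderOf (x : G ⧸ K) = 2 ^ (1 + 1) := orderOf_eq_prime_pow
    (by rwa [pow_one, sq, ← QuotientGroup.mk_mul, QuotientGroup.eq_one_iff])
    (by rw [show 2 ^ (1 + 1) = Nat.card (G ⧸ K) from h4.symm, pow_card_eq_one'])
  have := isCyclic_of_orderOf_eq_card _ (h1.trans h4.symm)
  exact exists_of_quot ⟨mulEquivOfCyclicCardEq (by simp [h4])⟩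

theorem exists_v4 (h : K.index = 4) (h2 : ∀ x, x * x ∈ K) :
    ∃ φ : G →* Multiplicative (ZMod 2 × ZMod 2), Function.Surjective φ ∧ φ.ker = K := by
  have : K.Normal := ⟨fun k hk g => by
    simpa [mul_assoc] using mul_mem (mul_mem (h2 (g * k)) (inv_mem hk)) (h2 g⁻¹)⟩
  have h4 : Nat.card (G ⧸ K) = 4 := h
  have : Finite (G ⧸ K) := Nat.finite_of_card_ne_zero (by omega)
  have : Nontrivial (G ⧸ K) := Finite.one_lt_card_iff_nontrivial.1 (by omega)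
  have : IsKleinFour (G ⧸ K) := ⟨h4, (Monoid.exponent_eq_prime_iff Nat.prime_two).2 fun x hx => by
    obtain ⟨x, rfl⟩ := QuotientGroup.mk_surjective x
    exact orderOf_eq_prime (by rw [sq, ← QuotientGroup.mk_mul, QuotientGroup.eq_one_iff]; exact h2 x) hx⟩
  exact exists_of_quot IsKleinFour.nonempty_mulEquiv

theorem exists_v4' [K.Normal] (h : K.index = 4)
    (h2 : ∀ x, ∃ a b, x = a * b ∧ a * a ∈ K ∧ b * b ∈ K) :
    ∃ φ : G →* Multiplicative (ZMod 2 × ZMod 2), Function.Surjective φ ∧ φ.ker = K := by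
  have := (IsPGroup.isMulCommutative_of_card_eq_prime_sq (G := G ⧸ K) (p := 2) h).is_comm.comm
  refine exists_v4 h fun x => ?_
  obtain ⟨a, b, rfl, ha, hb⟩ := h2 x
  rw [← QuotientGroup.eq_one_iff] at ha hb ⊢
  simp only [QuotientGroup.mk_mul] at ha hb ⊢
  rw [mul_assoc, ← mul_assoc (b : G ⧸ K), this (b : G ⧸ K), mul_assoc, hb, mul_one, ha]

end Grp

variable {ι : Type} [Fintype ι] [DecidableEq ι] {F : Type*} [Field F] [Finite F]

section ToD
variable {σ : F →+* F} {Φ : Formed σ (ι → F)} {H : Type*} [Group H] {j : H →* GL ι F} (C : Cl Φ j)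
  {S S' : Subgroup (GL ι F)} (hS : S ≤ Sim Φ) (hs : ∀ c, scal c ∈ S)

/-- The map of a group of similarities onto its image. -/
noncomputable def Cl.toD : S →* C.inD S :=
  (C.pMod hS hs).hom.codRestrict _ fun s => C.mem_inD.2 ⟨s, s.2, hS s.2, rfl⟩

theorem Cl.toD_surj : Function.Surjective (C.toD hS hs) := fun ⟨_, h⟩ =>
  let ⟨s, h1, _, e⟩ := C.mem_inD.1 h; ⟨⟨s, h1⟩, Subtype.ext e.symm⟩

theorem Cl.toD_mem (hs' : ∀ c, scal c ∈ S') (s : S) :
    C.toD hS hs s ∈ (C.inD S').subgroupOf (C.inD S) ↔ s.1 ∈ S' := C.theta_mem_inD hs' (hS s.2)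

include hS hs in
theorem Cl.relIndex_inD (hs' : ∀ c, scal c ∈ S') :
    (C.inD S').relIndex (C.inD S) = S'.relIndex S := by
  rw [Subgroup.relIndex, ← Subgroup.index_comap_of_surjective _ (C.toD_surj hS hs)]
  congr 1; ext s; exact C.toD_mem hS hs hs' s

include hS hs in
theorem Cl.exists_v4 (hs' : ∀ c, scal c ∈ S') (h : S'.relIndex S = 4) (h2 : ∀ s ∈ S, s * s ∈ S') :
    ∃ φ : C.inD S →* Multiplicative (ZMod 2 × ZMod 2), Function.Surjective φ ∧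
      φ.ker = (C.inD S').subgroupOf (C.inD S) :=
  AutCl.exists_v4 ((C.relIndex_inD hS hs hs').trans h) fun x => by
    obtain ⟨s, rfl⟩ := C.toD_surj hS hs x
    rw [← map_mul, C.toD_mem hS hs hs']; exact h2 s s.2

include hS hs in
theorem Cl.exists_v4' (hs' : ∀ c, scal c ∈ S') (hn : ((C.inD S').subgroupOf (C.inD S)).Normal)
    (h : S'.relIndex S = 4) (h2 : ∀ s ∈ S, ∃ a ∈ S, a * a ∈ S' ∧ a * s * (a * s) ∈ S') :
    ∃ φ : C.inD S →* Multiplicative (ZMod 2 × ZMod 2), Function.Surjective φ ∧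
      φ.ker = (C.inD S').subgroupOf (C.inD S) :=
  AutCl.exists_v4' ((C.relIndex_inD hS hs hs').trans h) fun x => by
    obtain ⟨s, rfl⟩ := C.toD_surj hS hs x
    obtain ⟨a, ha, h1, h2⟩ := h2 s s.2
    refine ⟨(C.toD hS hs ⟨a, ha⟩)⁻¹, C.toD hS hs (⟨a, ha⟩ * s), by simp, ?_, ?_⟩
    · rw [← mul_inv_rev, inv_mem_iff, ← map_mul, C.toD_mem hS hs hs']; exact h1
    · rw [← map_mul, C.toD_mem hS hs hs']; exact h2

end ToD

variable {Q : QuadraticForm F (ι → F)}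

omit [Finite F] in
theorem conj_ogl_refl [Nonempty ι] {δ : GL ι F} (h : δ ∈ Sim (ofQuad Q)) (v : ι → F) :
    δ * ogl Q (refl Q v) * δ⁻¹ = ogl Q (refl Q (δ.1 *ᵥ v)) := by
  have := congrArg Subtype.val (conj_ogHom_refl (Q := Q) ⟨inl δ, h⟩ v)
  refine inl_injective (φ := glField) ?_
  rw [map_mul, map_mul, map_inv]; exact this

namespace EvO
variable (E : EvO Q)
include E

theorem relIndex_SimP : E.SimP.relIndex (Sim (ofQuad Q)) = 2 := by
  obtain ⟨v, hv⟩ := E.exists_nonsing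
  have h := E.refl_notMem_SimP (v := v) (by simp [hv])
  have h' : ogl Q (refl Q v) ∈ Sim (ofQuad Q) := mem_Sim.2 ⟨_, simi_ogl _⟩
  refine Subgroup.relIndex_eq_two_iff.2 ⟨_, h', fun b hb => ?_⟩
  rw [E.mul_mem_SimP_iff hb h']
  by_cases hb : b ∈ E.SimP <;> simp [h, hb]

theorem sq_mem_SO {s : GL ι F} (hs : s ∈ Sim (ofQuad Q)) : s * s ∈ Zs Q (SOk E.nd E.h7) :=
  let ⟨κ, h⟩ := mem_Sim.1 hs
  (E.mem_SO_iff ((E.mul_mem_SimP_iff hs hs).2 Iff.rfl) (h.mul h)).2 ⟨κ, rfl⟩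

theorem relIndex_SO_Sim (h2 : (2 : F) ≠ 0) :
    (Zs Q (SOk E.nd E.h7)).relIndex (Sim (ofQuad Q)) = 4 := by
  rw [← Subgroup.relIndex_mul_relIndex _ _ _ E.Zs_le_SimP E.SimP_le, E.relIndex_SO h2, E.relIndex_SimP]

theorem SO_eq (hneg : negOne Q ∉ commutator (OG Q)) : Zs Q (SOk E.nd E.h7) = Zs Q (commutator _) :=
  le_antisymm (SO_le_Om E.nd E.h7 E.dick_negOne hneg) (Om_le_SO E.nd E.h7)

theorem pgo_pso (h2 : (2 : F) ≠ 0) : ∃ φ : pgoAut F ⇑Q →* Multiplicative (ZMod 2 × ZMod 2),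
    Function.Surjective φ ∧ φ.ker = (psoAut F ⇑Q).subgroupOf (pgoAut F ⇑Q) := by
  rw [pgoAut_eq E.nd E.h7, psoAut_eq E.nd E.h7 h2]
  exact (clO E.nd E.h7).exists_v4 le_rfl scal_mem_Sim scal_mem_Zs (E.relIndex_SO_Sim h2)
    fun _ => E.sq_mem_SO

theorem pso_eq (h2 : (2 : F) ≠ 0) (hneg : negOne Q ∉ commutator (OG Q)) :
    psoAut F ⇑Q = Cfsg.Inn (POmega F ⇑Q) := by
  rw [psoAut_eq E.nd E.h7 h2, inn_eq E.nd E.h7]; exact congrArg _ (E.SO_eq hneg)

theorem inn_pso (h2 : (2 : F) ≠ 0) (hneg : negOne Q ∈ commutator (OG Q)) :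
    (Cfsg.Inn (POmega F ⇑Q)).relIndex (psoAut F ⇑Q) = 2 := by
  rw [psoAut_eq E.nd E.h7 h2, inn_eq E.nd E.h7,
    (clO E.nd E.h7).relIndex_inD Zs_le_Sim scal_mem_Zs scal_mem_Zs]
  exact relIndex_Om_SO E.nd E.h7 h2 fun _ => ((mem_commutator_iff E.nd E.hx _).1 hneg).2

theorem ogl_mem_Om (hneg : negOne Q ∈ commutator (OG Q)) {g : OG Q} :
    ogl Q g ∈ Zs Q (commutator _) ↔ dick g = 1 ∧ spin g = 1 := by
  have := zs_mem_Zs E.nd (A := commutator _) (t := 1) (g := g)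
  rwa [scal_one, one_mul, Subgroup.mul_mem_cancel_left _ hneg, or_self,
    mem_commutator_iff E.nd E.hx] at this

theorem d8_of (h2 : (2 : F) ≠ 0) (hneg : negOne Q ∈ commutator (OG Q)) {A : Type*} [Group A]
    (o : Sim (ofQuad Q) →* A) (os : Function.Surjective o)
    (ok : ∀ s, o s = 1 ↔ s.1 ∈ Zs Q (commutator _)) : Nonempty (A ≃* DihedralGroup 4) := by
  have hQ := E.nd
  have hx := E.hx
  have := E.ne
  let i : OG Q →* Sim (ofQuad Q) := (ogl Q).codRestrict _ fun g => mem_Sim.2 ⟨_, simi_ogl g⟩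
  let o' := o.comp i
  have key : ∀ g k : OG Q, o' g = o' k ↔ dick g = dick k ∧ spin g = spin k := fun g k => by
    rw [← mul_inv_eq_one, ← map_inv, ← map_mul]
    refine (ok _).trans ((E.ogl_mem_Om hneg).trans ?_)
    rw [← dickHom_apply hQ hx, ← spinHom_apply hQ hx, map_mul, map_mul, map_inv, map_inv,
      mul_inv_eq_one, mul_inv_eq_one]; rfl
  obtain ⟨κ, hκ0, hκ⟩ := exists_not_isSquare h2
  obtain ⟨g, -, hg⟩ := E.exists_SimP (Units.mk0 κ hκ0)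
  obtain ⟨v, hv⟩ := E.exists_nonsing
  have hv0 : Q v ≠ 0 := by simp [hv]
  let δ : Sim (ofQuad Q) := ⟨_, mem_Sim.2 ⟨_, hg⟩⟩
  have hw : Q (g.1 *ᵥ v) = κ := by simpa [hv] using (simi_quad_iff.1 hg).2 v
  have hw0 : Q (g.1 *ᵥ v) ≠ 0 := by rwa [hw]
  let χ₀ : Sim (ofQuad Q) →* ℤˣ := MonoidHom.mk' (fun s => sqSign (simMult hQ s : F)) fun a b => by
    simp [sqSign_mul]
  let χ := o.liftOfSurjective os ⟨χ₀, fun s hs =>
    sqSign_eq_one_iff.2 ((simMult_spec hQ s).isSquare_of_Zs hQ ((ok s).1 hs))⟩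
  have hχ : ∀ s, χ (o s) = sqSign (simMult hQ s : F) := fun s => by simp [χ, χ₀]
  have s1 : spin (refl Q v) = 1 := by rw [spin_refl hQ hv0, hv, sqSign_one]
  have s2 : spin (refl Q (g.1 *ᵥ v)) = -1 := by rwa [spin_refl hQ hw0, hw, sqSign_eq_neg_one_iff]
  obtain ⟨e⟩ := nonempty_equiv_d8_prod (1 : _ →* Unit) χ (φ := 1) (r := o' (refl Q v))
    (s := o' (refl Q (g.1 *ᵥ v))) (δ := o δ) (Subsingleton.elim _ _) (f := 1) (by simp) (by simp) rfl rfl
    (by rwa [hχ, simMult_eq hQ hg, sqSign_eq_neg_one_iff])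
    ((hχ _).trans (by rw [simMult_eq hQ (simi_ogl _), sqSign_one]))
    (by rw [← map_mul, refl_mul_self, map_one])
    (fun h => by simpa [dick_refl hQ hv0] using ((key _ 1).1 (h.trans (map_one _).symm)).1)
    (fun h => by simpa [s1, s2] using ((key _ _).1 h).2)
    (by rw [← map_mul, ← map_mul, key, dick_mul hQ hx, dick_mul hQ hx, spin_mul hQ hx,
      spin_mul hQ hx]; exact ⟨mul_comm _ _, mul_comm _ _⟩)
    (by change _ * o _ * _ = o _
        rw [← map_inv, ← map_mul, ← map_mul]; exact congrArg o (Subtype.ext (conj_ogl_refl δ.2 v)))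
    (Commute.one_left _) (Commute.one_left _) fun d _ h3 => by
      obtain ⟨n, rfl⟩ := os d
      rw [hχ, sqSign_eq_one_iff] at h3
      obtain ⟨t, k, e⟩ := (simMult_spec hQ n).exists_ogl' h3
      have : o n = o' k := by
        rw [← mul_inv_eq_one]; change o n * (o _)⁻¹ = 1
        rw [← map_inv, ← map_mul, ok]
        change n.1 * (ogl Q k)⁻¹ ∈ _
        rw [e, mul_inv_cancel_right]; exact scal_mem_Zs t
      rw [this, ← map_one o', ← map_mul]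
      simp only [key, dick_mul hQ hx, spin_mul hQ hx, s1, s2, dick_refl hQ hv0, dick_refl hQ hw0,
        dick_one, spin_one hQ]
      rcases Int.units_eq_one_or (dick k) with h | h <;>
        rcases Int.units_eq_one_or (spin k) with h' | h' <;> simp [h, h']
  exact ⟨e.trans (MulEquiv.prodUnique (N := Multiplicative (ZMod 1)))⟩

theorem pgo_d8 (h2 : (2 : F) ≠ 0) (hneg : negOne Q ∈ commutator (OG Q)) :
    ∃ φ : pgoAut F ⇑Q →* DihedralGroup 4, Function.Surjective φ ∧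
      φ.ker = (Cfsg.Inn (POmega F ⇑Q)).subgroupOf (pgoAut F ⇑Q) := by
  have C := clO E.nd E.h7
  rw [pgoAut_eq E.nd E.h7]
  refine exists_of_quot (E.d8_of h2 hneg ((QuotientGroup.mk' _).comp (C.toD le_rfl scal_mem_Sim))
    ((QuotientGroup.mk'_surjective _).comp (C.toD_surj le_rfl scal_mem_Sim)) fun s => ?_)
  refine (QuotientGroup.eq_one_iff _).trans ?_
  rw [inn_eq E.nd E.h7]; exact C.toD_mem _ _ scal_mem_Zs s

theorem relIndex_inn (h2 : (2 : F) ≠ 0) (hneg : negOne Q ∈ commutator (OG Q)) :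
    (Cfsg.Inn (POmega F ⇑Q)).relIndex ((clO E.nd E.h7).inD E.SimP) = 4 := by
  rw [inn_eq E.nd E.h7, (clO E.nd E.h7).relIndex_inD E.SimP_le E.scal_mem_SimP scal_mem_Zs,
    E.relIndex_Om h2 hneg]

theorem relIndex_inn' (h2 : (2 : F) ≠ 0) (hneg : negOne Q ∉ commutator (OG Q)) :
    (Cfsg.Inn (POmega F ⇑Q)).relIndex ((clO E.nd E.h7).inD E.SimP) = 2 := by
  rw [inn_eq E.nd E.h7, (clO E.nd E.h7).relIndex_inD E.SimP_le E.scal_mem_SimP scal_mem_Zs,
    ← E.SO_eq hneg, E.relIndex_SO h2]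

theorem inn_c2 (h2 : (2 : F) ≠ 0) (hneg : negOne Q ∉ commutator (OG Q)) :
    ∃ φ : (clO E.nd E.h7).inD E.SimP →* Multiplicative (ZMod 2),
      Function.Surjective φ ∧ φ.ker = (Cfsg.Inn (POmega F ⇑Q)).subgroupOf _ :=
  exists_c2 (E.relIndex_inn' h2 hneg)

theorem pgo_v4 (h2 : (2 : F) ≠ 0) (hneg : negOne Q ∉ commutator (OG Q)) :
    ∃ φ : pgoAut F ⇑Q →* Multiplicative (ZMod 2 × ZMod 2), Function.Surjective φ ∧
      φ.ker = (Cfsg.Inn (POmega F ⇑Q)).subgroupOf (pgoAut F ⇑Q) :=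
  E.pso_eq h2 hneg ▸ E.pgo_pso h2

variable (h2 : (2 : F) ≠ 0) (hneg : negOne Q ∈ commutator (OG Q)) {ρ : GL ι F} {κ : Fˣ}
  (hκ : ¬ IsSquare (κ : F)) (hρ : Simi (ofQuad Q) (ofQuad Q) ρ κ) (hρ2 : ρ * ρ = scal κ)
include h2 hneg hκ hρ hρ2

theorem inn_c4 (h : ρ ∉ E.SimP) : ∃ φ : (clO E.nd E.h7).inD E.SimP →* Multiplicative (ZMod 4),
    Function.Surjective φ ∧ φ.ker = (Cfsg.Inn (POmega F ⇑Q)).subgroupOf _ := by
  have := E.ne
  obtain ⟨v, hv⟩ := E.exists_nonsing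
  have hv0 : Q v ≠ 0 := by simp [hv]
  have hs : ρ ∈ Sim (ofQuad Q) := mem_Sim.2 ⟨_, hρ⟩
  have hw : Q (ρ.1 *ᵥ v) = κ := by simpa [hv] using (simi_quad_iff.1 hρ).2 v
  have hw0 : Q (ρ.1 *ᵥ v) ≠ 0 := by simp [hw]
  refine exists_c4 (E.relIndex_inn h2 hneg) (x := (clO E.nd E.h7).toD E.SimP_le E.scal_mem_SimP
    ⟨ρ * ogl Q (refl Q v), (E.mul_mem_SimP_iff hs (mem_Sim.2 ⟨_, simi_ogl _⟩)).2
      (iff_of_false h (E.refl_notMem_SimP hv0))⟩) ?_
  rw [← map_mul, inn_eq E.nd E.h7, (clO E.nd E.h7).toD_mem _ _ scal_mem_Zs]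
  have : ρ * ogl Q (refl Q v) * (ρ * ogl Q (refl Q v)) =
      scal κ * ogl Q (refl Q (ρ.1 *ᵥ v) * refl Q v) := by
    rw [map_mul, ← conj_ogl_refl hs, ← mul_assoc (scal κ), scal_comm, ← hρ2]; simp [mul_assoc]
  change ρ * ogl Q (refl Q v) * (ρ * ogl Q (refl Q v)) ∉ _
  rw [this, Subgroup.mul_mem_cancel_left _ (scal_mem_Zs κ), E.ogl_mem_Om hneg, spin_mul E.nd E.hx,
    spin_refl E.nd hv0, spin_refl E.nd hw0, hv, hw, sqSign_one, sqSign_eq_neg_one_iff.2 hκ]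
  simp

theorem inn_v4 (h : ρ ∈ E.SimP) :
    ∃ φ : (clO E.nd E.h7).inD E.SimP →* Multiplicative (ZMod 2 × ZMod 2),
      Function.Surjective φ ∧ φ.ker = (Cfsg.Inn (POmega F ⇑Q)).subgroupOf _ := by
  have hn : ((Cfsg.Inn (POmega F ⇑Q)).subgroupOf ((clO E.nd E.h7).inD E.SimP)).Normal := inferInstance
  rw [inn_eq E.nd E.h7] at hn ⊢
  refine (clO E.nd E.h7).exists_v4' E.SimP_le E.scal_mem_SimP scal_mem_Zs hn
    (E.relIndex_Om h2 hneg) fun s hs => ?_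
  have h1 : ∀ s ∈ Zs Q (SOk E.nd E.h7), s * s ∈ Zs Q (commutator _) := by
    rintro _ ⟨t, g, hg, rfl⟩
    have hg : dick g = 1 := hg
    rw [zs_mul, Subgroup.mul_mem_cancel_left _ (scal_mem_Zs _), E.ogl_mem_Om hneg, dick_mul E.nd E.hx,
      spin_mul E.nd E.hx, hg]
    simp
  obtain ⟨c, hc⟩ := mem_Sim.1 (E.SimP_le hs)
  by_cases hsq : IsSquare c
  · exact ⟨1, one_mem _, by simp, by rw [one_mul]; exact h1 s ((E.mem_SO_iff hs hc).2 hsq)⟩
  exact ⟨ρ, h, by rw [hρ2]; exact scal_mem_Zs κ, h1 _ ((E.mem_SO_iff (mul_mem h hs) (hρ.mul hc)).2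
      ((isSquare_mul_iff hρ.ne hc.ne).2 (iff_of_false hκ hsq)))⟩

end EvO

/-! ### Explicit similarities with scalar square -/

variable {m : ℕ}

/-- The block matrix swapping the two halves of a hyperbolic basis. -/
def swapM (m : ℕ) (κ : F) : Matrix (Fin m ⊕ Fin m) (Fin m ⊕ Fin m) F := fromBlocks 0 (κ • 1) 1 0

omit [Finite F] in
theorem det_swapM (κ : F) : (swapM m κ).det = (-κ) ^ m := by
  have : swapM m κ = fromBlocks 1 (κ • 1) 0 1 * fromBlocks ((-κ) • 1) 0 1 1 * fromBlocks 1 (-1) 0 1 := by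
    simp [swapM, fromBlocks_multiply]
  simp [this, det_fromBlocks_zero₂₁, det_fromBlocks_zero₁₂, det_neg, neg_pow κ]

omit [Finite F] in
theorem swapM_sq (κ : F) : swapM m κ * swapM m κ = κ • 1 := by
  simp [swapM, fromBlocks_multiply, ← fromBlocks_one, fromBlocks_smul]

omit [Finite F] in
theorem swapM_mulVec (κ : F) (v : Fin m ⊕ Fin m → F) :
    swapM m κ *ᵥ v = Sum.elim (fun i => κ * v (.inr i)) fun i => v (.inl i) := by
  ext (i | i) <;> simp [swapM, fromBlocks_mulVec, smul_mulVec]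

omit [Finite F] in
theorem exists_rho {M : Matrix ι ι F} {κ : Fˣ} (h : M * M = (κ : F) • 1) :
    ∃ ρ : GL ι F, ρ.1 = M ∧ ρ * ρ = scal κ :=
  ⟨⟨M, (κ : F)⁻¹ • M, by simp [h, smul_smul], by simp [h, smul_smul]⟩, rfl,
    Units.ext (Matrix.ext_iff_mulVec.2 fun v => by simp [scal_mulVec, h, smul_mulVec])⟩

theorem exists_rho_plus (hm : 4 ≤ m) (h2 : (2 : F) ≠ 0) (κ : Fˣ) :
    ∃ ρ : GL _ F, Simi (ofQuad (qP F m)) (ofQuad (qP F m)) ρ κ ∧ ρ * ρ = scal κ ∧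
      (ρ ∈ (evO_plus hm).SimP ↔ Even m) := by
  obtain ⟨ρ, h1, h3⟩ := exists_rho (swapM_sq (m := m) (κ : F))
  have hρ : Simi (ofQuad (qP F m)) (ofQuad (qP F m)) ρ κ := simi_quad_iff.2 ⟨κ.ne_zero, fun x => by
    simp [h1, qP_eq, quadPlus_apply, swapM_mulVec, Finset.mul_sum, mul_comm, mul_left_comm]⟩
  refine ⟨ρ, hρ, h3, ?_⟩
  rw [(evO_plus hm).mem_SimP_iff_det h2 hρ, h1, det_swapM, neg_pow, show Fintype.card
    (Fin m ⊕ Fin m) / 2 = m by simp; omega, mul_eq_right₀ (by simp),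
    neg_one_pow_eq_one_iff_even fun h => h2 (by linear_combination -h)]

theorem exists_rho_minus (hm : 3 ≤ m) (h2 : (2 : F) ≠ 0) {a b : F}
    (hab : ∀ z₁ z₂ : F, z₁ ^ 2 + a * z₁ * z₂ + b * z₂ ^ 2 = 0 → z₁ = 0 ∧ z₂ = 0) (κ : Fˣ) :
    ∃ ρ : GL _ F, Simi (ofQuad (qM F m a b)) (ofQuad (qM F m a b)) ρ κ ∧ ρ * ρ = scal κ ∧
      (ρ ∈ (evO_minus hm hab).SimP ↔ Odd m) := by
  obtain ⟨w, -, hw⟩ := exists_Q_eq (quadMinus F 0 a b) ⊤ (isIso_top.symm.nondeg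
    (quadMinus_nondeg F 0 (disc_ne_zero_of_anisotropic hab))) (by simp) κ
  simp only [quadMinus_apply, Finset.univ_eq_empty, Finset.sum_empty, zero_add] at hw
  set u := w (.inr 0)
  set v := w (.inr 1)
  let N : Matrix (Fin 2) (Fin 2) F := !![u, a * u + b * v; v, -u]
  have hN : N * N = (κ : F) • 1 := by
    ext i j; fin_cases i <;> fin_cases j <;> simp [N, ← hw] <;> ring
  obtain ⟨ρ, h1, h3⟩ := exists_rho (M := fromBlocks (swapM m (κ : F)) 0 0 N) (κ := κ) (by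
    simp [fromBlocks_multiply, swapM_sq, hN, ← fromBlocks_one, fromBlocks_smul])
  have hρ : Simi (ofQuad (qM F m a b)) (ofQuad (qM F m a b)) ρ κ :=
    simi_quad_iff.2 ⟨κ.ne_zero, fun x => by
      simp only [h1, qM_eq, quadMinus_apply, fromBlocks_mulVec, swapM_mulVec, zero_mulVec, add_zero,
        zero_add, Sum.elim_inl, Sum.elim_inr, Function.comp, mul_add, Finset.mul_sum]
      congr 1
      · exact Finset.sum_congr rfl fun i _ => by ring
      · simp [N, mulVec, dotProduct, ← hw]; ring⟩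
  refine ⟨ρ, hρ, h3, ?_⟩
  have hd : N.det = -κ := by simp [N, det_fin_two, ← hw]; ring
  rw [(evO_minus hm hab).mem_SimP_iff_det h2 hρ, h1, det_fromBlocks_zero₂₁, det_swapM, hd,
    ← pow_succ, neg_pow, show Fintype.card ((Fin m ⊕ Fin m) ⊕ Fin 2) / 2 = m + 1 by simp; omega,
    mul_eq_right₀ (by simp), neg_one_pow_eq_one_iff_even fun h => h2 (by linear_combination -h),
    Nat.even_add_one, Nat.not_even_iff_odd]

theorem neg_plus_iff [Fintype F] (hodd : Odd (Fintype.card F)) (hm : 4 ≤ m) :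
    negOne (qP F m) ∉ commutator _ ↔ Odd m ∧ Fintype.card F % 4 = 3 := by
  rw [negOne_mem_plus_iff (evO_plus hm).nd (two_ne_zero_of_odd_card hodd) (m := m) (by simp; omega)
    (qP_witt m), and_comm, ← pow_mod_four_eq_three_iff]
  have := Nat.odd_iff.1 (hodd.pow (n := m)); omega

theorem neg_minus_iff [Fintype F] (hodd : Odd (Fintype.card F)) (hm : 3 ≤ m) {a b : F}
    (hab : ∀ z₁ z₂ : F, z₁ ^ 2 + a * z₁ * z₂ + b * z₂ ^ 2 = 0 → z₁ = 0 ∧ z₂ = 0) :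
    negOne (qM F m a b) ∈ commutator _ ↔ Even m ∧ Fintype.card F % 4 = 3 := by
  rw [negOne_mem_minus_iff (evO_minus hm hab).nd (two_ne_zero_of_odd_card hodd) (m := m)
    (by simp; omega) (qM_witt m hab), and_comm, pow_mod_four_eq_three_iff, Nat.odd_add_one,
    Nat.not_odd_iff_even]

end Cfsg.Agent.AutCl
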