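import Cfsg.Agent.AutCl.OGF
import Cfsg.Agent.AutCl.OQuot
import Cfsg.Agent.ChAut.OutD4
import Cfsg.Agent.ChAut.Orth

/-! `Inndiag(PΩ⁺₈(q))` is the image of the inner-diagonal group of `D₄(q)`, hence normal in the full automorphism
group (`normal_plus`, all `m ≥ 4`). -/

set_option autoImplicit false

namespace Cfsg.Agent.AutCl

open Cfsg Cfsg.Lie Cfsg.Agent.Geom Cfsg.Agent.Geom.Formed Cfsg.Agent.Chev Cfsg.Agent.ChAut Matrix SemidirectProduct

variable {F : Type*} [Field F] [Finite F]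

theorem card_dgOut {D : ChevalleyDatum} [Chev.Good D] [Conn D] :
    Nat.card ((dgS D F).range.map (outStd (adS D F) (D.group F))) = Nat.card (zker D F) := by
  let f : (Sm D → Fˣ) →* (Sm D → Fˣ) := MonoidHom.mk' (fun c j => chi c (sm j)) fun c c' => funext fun j => chi_mul _ _ _
  have h1 : ((outStd (adS D F) (D.group F)).comp (dgS D F)).ker = f.range :=
    Subgroup.ext fun a => outStd_dg_iff.trans (exists_congr fun _ => eq_comm)
  have h2 : zker D F = f.ker := Subgroup.ext fun c => mem_zker.trans funext_iff.symm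
  rw [MonoidHom.map_range, ← Subgroup.index_ker, h1, h2]
  refine Nat.eq_of_mul_eq_mul_left (Nat.card_pos (α := f.range)) ?_
  rw [Subgroup.card_mul_index, ← Subgroup.index_ker, Subgroup.index_mul_card]

/-- The weights of the natural module relative to the highest one, in root coordinates. -/
def lam8 (v : Fin 4 ⊕ Fin 4) (i : Sm chevD4) : ℤ :=
  (v.elim ![[0, 0, 0, 0], [-1, 0, 0, 0], [-1, -1, 0, 0], [-1, -1, -1, 0]]
    ![[-2, -2, -1, -1], [-1, -2, -1, -1], [-1, -1, -1, -1], [-1, -1, 0, -1]]).getD i 0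

theorem lam8_spec : ∀ r : Rt chevD4, ∀ u v, (od8.e2 r u v == 0 && (od8.e1 r u v == 0 ||
    decide (∀ i, lam8 u i = lam8 v i + rtv r i))) = true := by
  decide +kernel

theorem lam8_add : ∀ v : Fin 4, ∀ i, lam8 (.inl v) i + lam8 (.inr v) i = lam8 (.inr 0) i := by decide +kernel

theorem EvO.normal_D4 (E : EvO (quadPlus F 4)) (h2 : (2 : F) ≠ 0) : ((clO E.nd E.h7).inD E.SimP).Normal := by
  cases nonempty_fintype F
  obtain ⟨Y, e, -, hY, he⟩ := exists_equivD4 F
  let N := ((dgS chevD4 F).range.map (outStd (adS chevD4 F) (chevD4.group F))).comap (QuotientGroup.mk' _)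
  have hN : N.Normal := (out_structure coxBD4 _ _ rfl rfl).1.comap _
  let ψ := (MulAut.congr e).toMonoidHom
  have hI : (Cfsg.Inn _).map ψ = Cfsg.Inn (POmega F (quadPlus F 4)) := by
    refine le_antisymm ?_ ?_
    · rintro _ ⟨_, ⟨g, rfl⟩, rfl⟩; exact ⟨e g, conj_congr e g⟩
    · rintro _ ⟨g, rfl⟩; exact ⟨_, ⟨e.symm g, rfl⟩, (conj_congr e (e.symm g)).symm.trans (by simp)⟩
  have hle : Cfsg.Inn _ ≤ (clO E.nd E.h7).inD E.SimP := inn_eq E.nd E.h7 ▸ (clO E.nd E.h7).inD_mono E.Om_le_SimP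
  have h1 : N.map ψ ≤ (clO E.nd E.h7).inD E.SimP := by
    rintro _ ⟨x, ⟨_, ⟨a, rfl⟩, hx⟩, rfl⟩
    rw [← mul_inv_cancel_left (dg chevD4 F a) x, map_mul]
    refine mul_mem ?_ (hle (hI ▸ Subgroup.mem_map_of_mem ψ (QuotientGroup.eq.1 hx)))
    let δ : GL (Fin 4 ⊕ Fin 4) F := ⟨diagonal fun v => rch a (lam8 v), diagonal fun v => ((rch a (lam8 v))⁻¹ : Fˣ),
      by simp, by simp⟩
    have h3 : ∀ v, (rch a (lam8 (.inl v)) : F) * rch a (lam8 (.inr v)) = rch a (lam8 (.inr 0)) := fun v => by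
      rw [← Units.val_mul, ← rch_add]; exact congrArg (fun w => (rch a w : F)) (funext (lam8_add v))
    have hδ : Simi (ofQuad (quadPlus F 4)) (ofQuad (quadPlus F 4)) δ (rch a (lam8 (.inr 0))) :=
      simi_quad_iff.2 ⟨Units.ne_zero _, fun x => by
        simp only [quadPlus_apply, δ, mulVec_diagonal, Finset.mul_sum]
        exact Finset.sum_congr rfl fun i _ => by rw [← h3 i]; ring⟩
    refine (clO E.nd E.h7).mem_inD.2 ⟨δ, (E.mem_SimP_iff_det h2 hδ).2 ?_, mem_Sim.2 ⟨_, hδ⟩, ?_⟩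
    · simp [δ, Fintype.prod_sum_type, ← Finset.prod_mul_distrib, h3]
    refine (MulAut.congr e).symm.injective (((MulAut.congr e).symm_apply_apply _).trans (aut_ext' fun r t => ?_))
    refine e.injective (Eq.trans ?_ (e.apply_symm_apply _).symm)
    change _ = (clO E.nd E.h7).theta _ (e _)
    rw [dg_x, he, he, Cl.theta_mk]
    refine congrArg _ ((clO E.nd E.h7).inj ?_)
    rw [Cl.j_nu, eq_mul_inv_iff_mul_eq]
    refine Units.ext (Matrix.ext fun u v => ?_)
    change ((Y.x r _).1.1.1 * δ.1) u v = (δ.1 * (Y.x r t).1.1.1) u v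
    have h4 := lam8_spec r u v
    simp only [Bool.and_eq_true, Bool.or_eq_true, beq_iff_eq, decide_eq_true_eq] at h4
    rw [hY, hY, od8_ok.rep_y, od8_ok.rep_y]
    have h5 : (rch a (rtv r) : F) * od8.e1 r u v * rch a (lam8 v) = rch a (lam8 u) * od8.e1 r u v := by
      rcases h4.2 with h | h
      · simp [h]
      · rw [show lam8 u = lam8 v + rtv r from funext h, rch_add, Units.val_mul]; ring
    have h6 : (1 : Matrix _ _ F) u v * rch a (lam8 v) = rch a (lam8 u) * (1 : Matrix _ _ F) u v := by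
      by_cases e : u = v <;> simp [one_apply, e]
    simp only [δ, mul_diagonal, diagonal_mul, Matrix.add_apply, Matrix.smul_apply, cm, RingHom.mapMatrix_apply,
      map_apply, h4.1, smul_eq_mul, eq_intCast, Int.cast_zero]
    linear_combination h6 + t * h5
  have h3 : (Cfsg.Inn _).relIndex (N.map ψ) = 4 := by
    rw [← hI, Subgroup.relIndex_map_map_of_injective _ _ (MulAut.congr e).injective,
      ← QuotientGroup.ker_mk' (Cfsg.Inn _), Subgroup.relIndex_ker,
      Subgroup.map_comap_eq_self_of_surjective (QuotientGroup.mk'_surjective _), card_dgOut, card_zkerD4,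
      Nat.card_eq_fintype_card, Nat.gcd_eq_left (Nat.Odd.sub_odd (odd_card_of_two_ne_zero h2) odd_one).two_dvd]; rfl
  have h4 := E.relIndex_inn h2 (by_contra fun h => by
    simpa [Nat.odd_iff] using (neg_plus_iff (odd_card_of_two_ne_zero h2) le_rfl).1 (qP_eq (F := F) 4 ▸ h))
  have h5 : Cfsg.Inn _ ≤ N.map ψ := hI ▸ Subgroup.map_mono fun x hx => by
    rw [Subgroup.mem_comap, (QuotientGroup.eq_one_iff (N := Cfsg.Inn _) x).2 hx |> (QuotientGroup.mk'_apply _ x).trans]
    exact one_mem _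
  rw [← Subgroup.relIndex_mul_relIndex _ _ _ h5 h1, h3, mul_eq_left₀ four_ne_zero, Subgroup.relIndex_eq_one] at h4
  rw [le_antisymm h4 h1]
  exact hN.map _ (MulAut.congr e).surjective

theorem normal_plus {m : ℕ} (hm : 4 ≤ m) : ((clP F hm).inD (evO_plus hm).SimP).Normal := by
  have E := evO_plus (F := F) hm
  rcases hm.eq_or_lt with rfl | h
  · by_cases h2 : (2 : F) = 0
    · rw [le_antisymm (E.SimP_le_Om h2) E.Om_le_SimP, ← inn_eq E.nd E.h7]; infer_instance
    · have : ∀ Q, Q = quadPlus F 4 → ∀ E : EvO Q, ((clO E.nd E.h7).inD E.SimP).Normal := by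
        rintro _ rfl E; exact E.normal_D4 h2
      exact this _ (qP_eq 4) E
  · exact E.normal (qP_surj h)

end Cfsg.Agent.AutCl
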